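import Mathlib

/-!
The Moebius function of a finite partial order with bottom, as an alternating sum over chains:
the basic recursion, the Weisner identity in a lattice, and its compatibility with lower intervals.
-/

set_option autoImplicit false
set_option linter.unusedSectionVars false

namespace Cfsg.Agent.Lib.GLSt.Mob

open Finset

section Poset

variable {L : Type*} [PartialOrder L] [OrderBot L] [Fintype L]

open Classical in
/-- Chains strictly between `⊥` and `a`. -/
noncomputable def Ch (a : L) : Finset (Finset L) :=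
  univ.filter fun C => (∀ c ∈ C, ⊥ < c ∧ c < a) ∧ IsChain (· ≤ ·) (C : Set L)

open Classical in
theorem mem_Ch {a : L} {C : Finset L} :
    C ∈ Ch a ↔ (∀ c ∈ C, ⊥ < c ∧ c < a) ∧ IsChain (· ≤ ·) (C : Set L) := by
  simp [Ch]

/-- The alternating sum over chains. -/
noncomputable def cm (a : L) : ℤ := ∑ C ∈ Ch a, (-1) ^ C.card

open Classical in
/-- The Moebius function `μ(⊥, a)`. -/
noncomputable def mob (a : L) : ℤ := if a = ⊥ then 1 else - cm a

theorem exists_top {C : Finset L} (hC : C.Nonempty) (hch : IsChain (· ≤ ·) (C : Set L)) :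
    ∃ b ∈ C, ∀ c ∈ C, c ≤ b := by
  classical
  obtain ⟨b, hb⟩ := C.exists_maximal hC
  refine ⟨b, hb.1, fun c hc => ?_⟩
  rcases hch.total (show c ∈ (C : Set L) from hc) (show b ∈ (C : Set L) from hb.1) with h | h
  · exact h
  · exact hb.2 hc h

open Classical in
/-- The top of a chain. -/
noncomputable def top (C : Finset L) : L :=
  if h : ∃ b ∈ C, ∀ c ∈ C, c ≤ b then h.choose else ⊥

theorem top_spec {C : Finset L} (hC : C.Nonempty) (hch : IsChain (· ≤ ·) (C : Set L)) :
    top C ∈ C ∧ ∀ c ∈ C, c ≤ top C := by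
  classical
  have h := exists_top hC hch
  rw [top, dif_pos h]
  exact h.choose_spec

theorem top_eq {C : Finset L} {b : L} (hb : b ∈ C) (hle : ∀ c ∈ C, c ≤ b)
    (hch : IsChain (· ≤ ·) (C : Set L)) : top C = b := by
  have h := top_spec ⟨b, hb⟩ hch
  exact le_antisymm (hle _ h.1) (h.2 _ hb)

open Classical in
/-- The basic recursion. -/
theorem cm_rec (a : L) : cm a = 1 - ∑ b ∈ univ.filter (fun b => ⊥ < b ∧ b < a), cm b := by
  classical
  have h0 : (∅ : Finset L) ∈ Ch a := by
    rw [mem_Ch]
    simp
  rw [cm, ← Finset.add_sum_erase _ _ h0]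
  simp only [card_empty, pow_zero]
  rw [sub_eq_add_neg]
  congr 1
  rw [← sum_neg_distrib]
  simp only [cm]
  simp only [← sum_neg_distrib]
  rw [sum_sigma']
  refine Finset.sum_bij' (fun C _ => (⟨top C, C.erase (top C)⟩ : Σ _ : L, Finset L))
    (fun x _ => insert x.1 x.2) ?_ ?_ ?_ ?_ ?_
  · intro C hC
    rw [mem_erase, mem_Ch] at hC
    have hne : C.Nonempty := nonempty_iff_ne_empty.mpr hC.1
    have ht := top_spec hne hC.2.2
    simp only [mem_sigma, mem_filter, mem_univ, true_and]
    refine ⟨hC.2.1 _ ht.1, ?_⟩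
    rw [mem_Ch]
    refine ⟨fun c hc => ?_, ?_⟩
    · rw [mem_erase] at hc
      exact ⟨(hC.2.1 c hc.2).1, lt_of_le_of_ne (ht.2 c hc.2) hc.1⟩
    · exact hC.2.2.mono (by
        intro c hc
        have h1 : c ∈ C.erase (top C) := by exact_mod_cast hc
        exact_mod_cast (mem_erase.mp h1).2)
  · rintro ⟨b, C'⟩ hx
    simp only [mem_sigma, mem_filter, mem_univ, true_and] at hx
    obtain ⟨hb, hC'⟩ := hx
    rw [mem_Ch] at hC'
    rw [mem_erase, mem_Ch]
    refine ⟨insert_ne_empty _ _, fun c hc => ?_, ?_⟩
    · rcases mem_insert.mp hc with rfl | hc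
      · exact hb
      · exact ⟨(hC'.1 c hc).1, (hC'.1 c hc).2.trans hb.2⟩
    · rw [coe_insert]
      exact hC'.2.insert fun c hc _ => Or.inr (hC'.1 c hc).2.le
  · intro C hC
    rw [mem_erase, mem_Ch] at hC
    have hne : C.Nonempty := nonempty_iff_ne_empty.mpr hC.1
    have ht := top_spec hne hC.2.2
    exact insert_erase ht.1
  · rintro ⟨b, C'⟩ hx
    simp only [mem_sigma, mem_filter, mem_univ, true_and] at hx
    obtain ⟨hb, hC'⟩ := hx
    rw [mem_Ch] at hC'
    have hch : IsChain (· ≤ ·) ((insert b C' : Finset L) : Set L) := by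
      rw [coe_insert]
      exact hC'.2.insert fun c hc _ => Or.inr (hC'.1 c hc).2.le
    have htop : top (insert b C') = b := by
      refine top_eq (mem_insert_self _ _) (fun c hc => ?_) hch
      rcases mem_insert.mp hc with rfl | hc
      · exact le_rfl
      · exact (hC'.1 c hc).2.le
    have hnot : b ∉ C' := fun h => lt_irrefl _ (hC'.1 b h).2
    simp only [htop]
    rw [erase_insert hnot]
  · intro C hC
    rw [mem_erase, mem_Ch] at hC
    have hne : C.Nonempty := nonempty_iff_ne_empty.mpr hC.1
    have ht := top_spec hne hC.2.2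
    have hcard : (C.erase (top C)).card + 1 = C.card := card_erase_add_one ht.1
    show (-1 : ℤ) ^ C.card = - (-1) ^ (C.erase (top C)).card
    rw [← hcard, pow_succ]
    ring

open Classical in
theorem mob_bot : mob (⊥ : L) = 1 := by simp [mob]

open Classical in
theorem mob_of_ne {a : L} (ha : a ≠ ⊥) : mob a = - cm a := by simp [mob, ha]

open Classical in
/-- The defining property of the Moebius function. -/
theorem sum_mob {a : L} (ha : a ≠ ⊥) : ∑ b ∈ univ.filter (· ≤ a), mob b = 0 := by
  classical
  have hbot : ⊥ ∈ (univ.filter (· ≤ a) : Finset L) := by simp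
  have ha' : a ∈ (univ.filter (· ≤ a) : Finset L) := by simp
  rw [← Finset.add_sum_erase _ _ ha', ← Finset.add_sum_erase _ _
    (mem_erase.mpr ⟨ha.symm, hbot⟩ : (⊥ : L) ∈ (univ.filter (· ≤ a) : Finset L).erase a)]
  have hset : ((univ.filter (· ≤ a) : Finset L).erase a).erase ⊥ =
      univ.filter (fun b => ⊥ < b ∧ b < a) := by
    ext b
    simp only [mem_erase, mem_filter, mem_univ, true_and]
    constructor
    · rintro ⟨h1, h2, h3⟩
      exact ⟨bot_lt_iff_ne_bot.mpr h1, lt_of_le_of_ne h3 h2⟩
    · rintro ⟨h1, h2⟩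
      exact ⟨h1.ne', h2.ne, h2.le⟩
  rw [hset, mob_of_ne ha, mob_bot, cm_rec a]
  have : ∑ b ∈ univ.filter (fun b => ⊥ < b ∧ b < a), mob b =
      ∑ b ∈ univ.filter (fun b => ⊥ < b ∧ b < a), (- cm b) := by
    apply sum_congr rfl
    intro b hb
    exact mob_of_ne (mem_filter.mp hb).2.1.ne'
  rw [this, sum_neg_distrib]
  ring

open Classical in
/-- The recursion for the Moebius function. -/
theorem mob_rec {a : L} (ha : a ≠ ⊥) : mob a = - ∑ b ∈ univ.filter (· < a), mob b := by
  classical
  have h := sum_mob ha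
  have ha' : a ∈ (univ.filter (· ≤ a) : Finset L) := by simp
  rw [← Finset.add_sum_erase _ _ ha'] at h
  have hset : (univ.filter (· ≤ a) : Finset L).erase a = univ.filter (· < a) := by
    ext b
    simp only [mem_erase, mem_filter, mem_univ, true_and]
    exact ⟨fun h => lt_of_le_of_ne h.2 h.1, fun h => ⟨h.ne, h.le⟩⟩
  rw [hset] at h
  linarith

open Classical in
/-- The Moebius function only depends on lower intervals. -/
theorem mob_embed {L' : Type*} [PartialOrder L'] [OrderBot L'] [Fintype L'] (e : L' ↪o L)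
    (hbot : e ⊥ = ⊥) (hr : ∀ (a' : L') (b : L), b ≤ e a' → ∃ b', e b' = b) (a' : L') :
    mob (e a') = mob a' := by
  classical
  have hwf : WellFoundedLT L' := Finite.to_wellFoundedLT
  induction a' using WellFoundedLT.induction with
  | ind a' ih =>
    by_cases ha : a' = ⊥
    · subst ha
      rw [hbot, mob_bot, mob_bot]
    · have hea : e a' ≠ ⊥ := by
        intro h
        apply ha
        apply e.injective
        rw [h, hbot]
      rw [mob_rec ha, mob_rec hea]
      congr 1
      have hset : (univ.filter (· < e a') : Finset L) = (univ.filter (· < a')).map e.toEmbedding := by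
        ext b
        simp only [mem_filter, mem_univ, true_and, mem_map]
        constructor
        · intro h
          obtain ⟨b', rfl⟩ := hr a' b h.le
          exact ⟨b', e.lt_iff_lt.mp h, rfl⟩
        · rintro ⟨b', h, rfl⟩
          exact e.lt_iff_lt.mpr h
      rw [hset, sum_map]
      apply sum_congr rfl
      intro b hb
      exact ih b (mem_filter.mp hb).2

end Poset

section Lattice

variable {L : Type*} [Lattice L] [OrderBot L] [Fintype L]

open Classical in
/-- Weisner's identity. -/
theorem weisner {s : L} (hs : s ≠ ⊥) (a : L) (hsa : s ≤ a) :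
    ∑ y ∈ univ.filter (fun y => y ⊔ s = a), mob y = 0 := by
  classical
  have hwf : WellFoundedLT L := Finite.to_wellFoundedLT
  induction a using WellFoundedLT.induction with
  | ind a ih =>
    have ha : a ≠ ⊥ := fun h => hs (le_bot_iff.mp (h ▸ hsa))
    have h0 := sum_mob ha
    have hmaps : ∀ y ∈ (univ.filter (· ≤ a) : Finset L),
        y ⊔ s ∈ (univ.filter (fun z => s ≤ z ∧ z ≤ a) : Finset L) := by
      intro y hy
      simp only [mem_filter, mem_univ, true_and] at hy ⊢
      exact ⟨le_sup_right, sup_le hy hsa⟩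
    rw [← Finset.sum_fiberwise_of_maps_to hmaps] at h0
    have ha' : a ∈ (univ.filter (fun z => s ≤ z ∧ z ≤ a) : Finset L) := by
      simp [hsa]
    rw [← Finset.add_sum_erase _ _ ha'] at h0
    have hinner : ∀ z ∈ (univ.filter (fun z => s ≤ z ∧ z ≤ a) : Finset L),
        (univ.filter (· ≤ a) : Finset L).filter (fun y => y ⊔ s = z) =
          univ.filter (fun y => y ⊔ s = z) := by
      intro z hz
      simp only [mem_filter, mem_univ, true_and] at hz
      ext y
      simp only [mem_filter, mem_univ, true_and, and_iff_right_iff_imp]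
      intro h
      exact le_sup_left.trans (h.le.trans hz.2)
    rw [hinner a ha'] at h0
    have hrest : ∑ z ∈ (univ.filter (fun z => s ≤ z ∧ z ≤ a) : Finset L).erase a,
        ∑ y ∈ (univ.filter (· ≤ a) : Finset L).filter (fun y => y ⊔ s = z), mob y = 0 := by
      apply sum_eq_zero
      intro z hz
      have hz' := mem_erase.mp hz
      rw [hinner z hz'.2]
      simp only [mem_filter, mem_univ, true_and] at hz'
      exact ih z (lt_of_le_of_ne hz'.2.2 hz'.1) hz'.2.1
    rw [hrest, add_zero] at h0
    exact h0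

end Lattice

end Cfsg.Agent.Lib.GLSt.Mob
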