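import Mathlib
import Cfsg.Agent.Lib.GLSt.Mob

/-!
Finite modules over `F[X]`: the characteristic polynomial of `X`, simple modules, homomorphisms into a
simple module, the number of complements of a simple submodule.
-/

set_option autoImplicit false
set_option linter.unusedSectionVars false

namespace Cfsg.Agent.Lib.GLSt.Cp

open Polynomial UniqueFactorizationMonoid

universe u v w

variable (F : Type*) [Field F]

section Basic

variable (N : Type u) [AddCommGroup N] [Module F N] [Module F[X] N] [IsScalarTower F F[X] N]

/-- Multiplication by `X`. -/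
noncomputable def mx : Module.End F N := Algebra.lsmul F F N (X : F[X])

@[simp] theorem mx_apply (v : N) : mx F N v = (X : F[X]) • v := rfl

theorem aeval_mx (p : F[X]) (v : N) : aeval (mx F N) p v = p • v := by
  have h : aeval (mx F N) p = Algebra.lsmul F F N p := by
    rw [mx, aeval_algHom_apply, aeval_X_left, AlgHom.id_apply]
  rw [h]
  rfl

/-- The characteristic polynomial of `X`. -/
noncomputable def cp [Module.Finite F N] : F[X] := (mx F N).charpoly

theorem cp_monic [Module.Finite F N] : (cp F N).Monic := LinearMap.charpoly_monic _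

theorem cp_natDegree [Module.Finite F N] : (cp F N).natDegree = Module.finrank F N :=
  LinearMap.charpoly_natDegree _

end Basic

section Congr

variable {N : Type u} [AddCommGroup N] [Module F N] [Module F[X] N] [IsScalarTower F F[X] N]
variable {N' : Type v} [AddCommGroup N'] [Module F N'] [Module F[X] N'] [IsScalarTower F F[X] N']

theorem cp_congr [Module.Finite F N] [Module.Finite F N'] (e : N ≃ₗ[F[X]] N') :
    cp F N = cp F N' := by
  have h := LinearEquiv.charpoly_conj (e.restrictScalars F) (mx F N)
  rw [cp, cp, ← h]
  congr 1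
  ext v
  simp only [LinearEquiv.conj_apply, LinearMap.comp_apply, LinearEquiv.coe_coe,
    LinearEquiv.restrictScalars_apply, mx_apply]
  have h1 : e ((e.restrictScalars F).symm v) = v := e.apply_symm_apply v
  rw [e.map_smul, h1]

theorem cp_prod [Module.Finite F N] [Module.Finite F N'] :
    cp F (N × N') = cp F N * cp F N' := by
  rw [cp, cp, cp, ← LinearMap.charpoly_prodMap]
  congr 1

theorem cp_compl [Finite N] (p q : Submodule F[X] N) (h : IsCompl p q) :
    cp F N = cp F p * cp F q := by
  rw [← cp_prod, cp_congr F (Submodule.prodEquivOfIsCompl p q h).symm]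

end Congr

section Simple

variable (S : Type u) [AddCommGroup S] [Module F S] [Module F[X] S] [IsScalarTower F F[X] S]

/-- The structure of a finite simple module. -/
theorem simple_struct [Finite S] [IsSimpleModule F[X] S] :
    ∃ g : F[X], g.Monic ∧ Irreducible g ∧ Nonempty (S ≃ₗ[F[X]] F[X] ⧸ Ideal.span {g}) ∧ cp F S = g := by
  classical
  obtain ⟨I, hI, ⟨e⟩⟩ := isSimpleModule_iff_quot_maximal.mp (inferInstance : IsSimpleModule F[X] S)
  obtain ⟨g0, hg0⟩ := (IsPrincipalIdealRing.principal I : Submodule.IsPrincipal I)
  have hg0' : I = Ideal.span {g0} := hg0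
  have hbot : I ≠ ⊥ := Ring.ne_bot_of_isMaximal_of_not_isField hI (Polynomial.not_isField F)
  have h0 : g0 ≠ 0 := by
    rintro rfl
    apply hbot
    rw [hg0']
    simp
  have hprime : Prime g0 := (Ideal.span_singleton_prime h0).mp (by rw [← hg0']; exact hI.isPrime)
  set g := normalize g0 with hgdef
  have hass : Associated g g0 := normalize_associated g0
  have hirr : Irreducible g := hass.symm.irreducible hprime.irreducible
  have hm : g.Monic := Polynomial.monic_normalize h0
  have hI' : I = Ideal.span {g} := by
    rw [hg0']
    exact Ideal.span_singleton_eq_span_singleton.mpr hass.symm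
  subst hI'
  refine ⟨g, hm, hirr, ⟨e⟩, ?_⟩
  have : Nontrivial S := IsSimpleModule.nontrivial F[X] S
  have haeval : aeval (mx F S) g = 0 := by
    ext v
    rw [aeval_mx, LinearMap.zero_apply]
    apply e.injective
    rw [e.map_smul, e.map_zero]
    obtain ⟨r, hr⟩ := Ideal.Quotient.mk_surjective (e v)
    rw [← hr]
    have h1 : g • Ideal.Quotient.mk (Ideal.span {g}) r = Ideal.Quotient.mk (Ideal.span {g}) (g * r) := rfl
    rw [h1, Ideal.Quotient.eq_zero_iff_mem]
    exact Ideal.mem_span_singleton.mpr (dvd_mul_right _ _)
  have hmin : g = minpoly F (mx F S) := minpoly.eq_of_irreducible_of_monic hirr haeval hm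
  have hdvd : g ∣ cp F S := by
    rw [hmin]
    exact LinearMap.minpoly_dvd_charpoly _
  have hdeg : (cp F S).natDegree ≤ g.natDegree := by
    rw [cp_natDegree, (e.restrictScalars F).finrank_eq, finrank_quotient_span_eq_natDegree]
  exact Polynomial.eq_of_monic_of_dvd_of_natDegree_le hm (cp_monic F S) hdvd hdeg

end Simple

/-- Endomorphisms of a cyclic module. -/
theorem card_end_quot {R : Type*} [CommRing R] (I : Ideal R) :
    Nat.card ((R ⧸ I) →ₗ[R] (R ⧸ I)) = Nat.card (R ⧸ I) := by
  apply Nat.card_eq_of_bijective (fun ψ : (R ⧸ I) →ₗ[R] (R ⧸ I) => ψ 1)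
  constructor
  · intro ψ ψ' h
    refine LinearMap.ext fun a => ?_
    obtain ⟨r, rfl⟩ := Ideal.Quotient.mk_surjective a
    simp only at h
    have h1 : ∀ χ : (R ⧸ I) →ₗ[R] (R ⧸ I), χ (Ideal.Quotient.mk I r) = r • χ 1 := by
      intro χ
      rw [← χ.map_smul]
      congr 1
      rw [Algebra.smul_def, mul_one]
      rfl
    rw [h1, h1, h]
  · intro a
    exact ⟨LinearMap.mulLeft R a, by simp⟩

section Hom

variable {S : Type v} [AddCommGroup S] [Module F S] [Module F[X] S] [IsScalarTower F F[X] S]
variable {S' : Type w} [AddCommGroup S'] [Module F S'] [Module F[X] S'] [IsScalarTower F F[X] S']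

theorem hom_eq_zero [Finite S] [Finite S'] [IsSimpleModule F[X] S] [IsSimpleModule F[X] S']
    (h : cp F S' ≠ cp F S) (ψ : S' →ₗ[F[X]] S) : ψ = 0 := by
  by_contra hψ
  exact h (cp_congr F (LinearEquiv.ofBijective ψ (LinearMap.bijective_of_ne_zero hψ)))

theorem card_hom_of_ne [Finite S] [Finite S'] [IsSimpleModule F[X] S] [IsSimpleModule F[X] S']
    (h : cp F S' ≠ cp F S) : Nat.card (S' →ₗ[F[X]] S) = 1 := by
  rw [Nat.card_eq_one_iff_unique]
  exact ⟨⟨fun a b => by rw [hom_eq_zero F h a, hom_eq_zero F h b]⟩, ⟨0⟩⟩

theorem card_hom_of_eq [Finite S] [Finite S'] [IsSimpleModule F[X] S] [IsSimpleModule F[X] S']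
    (h : cp F S' = cp F S) : Nat.card (S' →ₗ[F[X]] S) = Nat.card S := by
  obtain ⟨g, -, -, ⟨e⟩, hg⟩ := simple_struct F S
  obtain ⟨g', -, -, ⟨e'⟩, hg'⟩ := simple_struct F S'
  have hgg : g' = g := by rw [← hg, ← hg', h]
  subst hgg
  rw [Nat.card_congr (e'.arrowCongr e).toEquiv, card_end_quot, Nat.card_congr e.toEquiv]

theorem cp_irreducible [Finite S] [IsSimpleModule F[X] S] : Irreducible (cp F S) := by
  obtain ⟨g, -, hi, -, hg⟩ := simple_struct F S
  rw [hg]
  exact hi

end Hom

section Count

variable {T : Type u} [AddCommGroup T] [Module F[X] T]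

/-- Homomorphisms out of a direct sum. -/
theorem card_hom_compl {S : Type v} [AddCommGroup S] [Module F[X] S] (p q : Submodule F[X] T)
    (h : IsCompl p q) :
    Nat.card (T →ₗ[F[X]] S) = Nat.card (p →ₗ[F[X]] S) * Nat.card (q →ₗ[F[X]] S) := by
  rw [← Nat.card_prod, Nat.card_congr ((LinearMap.coprodEquiv F[X]).toEquiv :
    ((p →ₗ[F[X]] S) × (q →ₗ[F[X]] S)) ≃ ((p × q) →ₗ[F[X]] S))]
  exact Nat.card_congr ((Submodule.prodEquivOfIsCompl p q h).symm.arrowCongr (LinearEquiv.refl _ _)).toEquiv

/-- The complements of `p` correspond to the homomorphisms from a fixed complement to `p`. -/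
theorem card_compl (p T' : Submodule F[X] T) (h : IsCompl p T') :
    Nat.card { q // IsCompl p q } = Nat.card (T' →ₗ[F[X]] p) := by
  rw [Nat.card_congr (Submodule.isComplEquivProj p)]
  refine Nat.card_congr
    { toFun := fun f => f.1 ∘ₗ T'.subtype
      invFun := fun ψ => ⟨(LinearMap.id.coprod ψ) ∘ₗ (Submodule.prodEquivOfIsCompl p T' h).symm.toLinearMap,
        fun x => ?_⟩
      left_inv := fun f => ?_
      right_inv := fun ψ => ?_ }
  · simp
  · apply Subtype.ext
    refine LinearMap.ext fun v => ?_
    obtain ⟨⟨a, b⟩, rfl⟩ := (Submodule.prodEquivOfIsCompl p T' h).surjective v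
    simp [f.2]
  · refine LinearMap.ext fun v => ?_
    simp

end Count

section Factors

variable [DecidableEq F]

/-- Number of homomorphisms to a simple module, in terms of multiplicities. -/
theorem card_hom {S : Type v} [AddCommGroup S] [Module F S] [Module F[X] S] [IsScalarTower F F[X] S]
    [Finite S] [IsSimpleModule F[X] S] (d : ℕ) :
    ∀ (T : Type u) [AddCommGroup T] [Module F T] [Module F[X] T] [IsScalarTower F F[X] T] [Finite T]
      [IsSemisimpleModule F[X] T], Nat.card T ≤ d →
      Nat.card (T →ₗ[F[X]] S) = Nat.card S ^ (normalizedFactors (cp F T)).count (cp F S) := by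
  induction d with
  | zero =>
    intro T _ _ _ _ _ _ hT
    have : 0 < Nat.card T := Nat.card_pos
    omega
  | succ d ih =>
    intro T _ _ _ _ _ _ hT
    by_cases hsub : Subsingleton T
    · have h1 : cp F T = 1 := by
        apply Polynomial.eq_one_of_monic_natDegree_zero (cp_monic F T)
        rw [cp_natDegree, Module.finrank_zero_of_subsingleton]
      rw [h1, normalizedFactors_one, Multiset.count_zero, pow_zero, Nat.card_eq_one_iff_unique]
      exact ⟨inferInstance, ⟨0⟩⟩
    · have hnt : Nontrivial T := not_subsingleton_iff_nontrivial.mp hsub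
      have htop : (⊤ : Submodule F[X] T) ≠ ⊥ := top_ne_bot
      obtain ⟨S', hS', -⟩ := (eq_bot_or_exists_atom_le (⊤ : Submodule F[X] T)).resolve_left htop
      obtain ⟨T', hc⟩ := exists_isCompl S'
      have hsim : IsSimpleModule F[X] S' := isSimpleModule_iff_isAtom.mpr hS'
      have hT' : T' ≠ ⊤ := by
        rintro rfl
        exact hS'.1 (hc.disjoint.eq_bot_of_le le_top)
      have hcard : Nat.card T' < Nat.card T := by
        obtain ⟨v, hv⟩ : ∃ v, v ∉ T' := by
          by_contra hall
          push Not at hall
          exact hT' (eq_top_iff.mpr fun v _ => hall v)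
        exact Finite.card_subtype_lt hv
      have hIH := ih T' (by omega)
      have hcp : cp F T = cp F S' * cp F T' := cp_compl F S' T' hc
      rw [card_hom_compl F S' T' hc, hIH, hcp,
        normalizedFactors_mul (cp_monic F S').ne_zero (cp_monic F T').ne_zero, Multiset.count_add,
        normalizedFactors_irreducible (cp_irreducible F : Irreducible (cp F S')),
        (cp_monic F S').normalize_eq_self, Multiset.count_singleton]
      by_cases he : cp F S = cp F S'
      · rw [if_pos he, card_hom_of_eq F he.symm, pow_add, pow_one]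
      · rw [if_neg he, card_hom_of_ne F (Ne.symm he), one_mul, zero_add]

/-- The product in the character formula. -/
noncomputable def Psi (q : ℕ) (P : F[X]) : ℤ :=
  ∏ f ∈ (normalizedFactors P).toFinset,
    (-1 : ℤ) ^ ((f.natDegree - 1) * (normalizedFactors P).count f) *
      (q : ℤ) ^ (f.natDegree * (normalizedFactors P).count f * ((normalizedFactors P).count f - 1) / 2)

/-- The factor for one polynomial. -/
def term (q : ℕ) (f : F[X]) (m : ℕ) : ℤ :=
  (-1 : ℤ) ^ ((f.natDegree - 1) * m) * (q : ℤ) ^ (f.natDegree * m * (m - 1) / 2)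

theorem term_zero (q : ℕ) (f : F[X]) : term F q f 0 = 1 := by
  simp [term]

theorem term_succ (q : ℕ) (f : F[X]) (m : ℕ) :
    term F q f (m + 1) = (-1 : ℤ) ^ (f.natDegree - 1) * (q : ℤ) ^ (f.natDegree * m) * term F q f m := by
  have h : f.natDegree * (m + 1) * (m + 1 - 1) / 2 = f.natDegree * m * (m - 1) / 2 + f.natDegree * m := by
    have h1 : f.natDegree * (m + 1) * (m + 1 - 1) = f.natDegree * m * (m - 1) + 2 * (f.natDegree * m) := by
      rcases m with _ | m
      · simp
      · simp only [Nat.add_sub_cancel]
        ring
    rw [h1, Nat.add_mul_div_left _ _ (by norm_num)]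
  simp only [term]
  rw [h, pow_add, mul_add, pow_add, mul_one]
  ring

theorem Psi_eq_prod (q : ℕ) (P : F[X]) {A : Finset F[X]} (hA : (normalizedFactors P).toFinset ⊆ A) :
    Psi F q P = ∏ f ∈ A, term F q f ((normalizedFactors P).count f) := by
  have h0 : Psi F q P = ∏ f ∈ (normalizedFactors P).toFinset,
      term F q f ((normalizedFactors P).count f) := rfl
  rw [h0]
  apply Finset.prod_subset hA
  intro f _ hf
  have : (normalizedFactors P).count f = 0 :=
    Multiset.count_eq_zero.mpr fun h => hf (Multiset.mem_toFinset.mpr h)
  rw [this, term_zero]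

/-- The recursion of the product over the factors. -/
theorem Psi_mul (q : ℕ) {f P : F[X]} (hf : Irreducible f) (hfm : f.Monic) (hP : P.Monic) :
    Psi F q (f * P) = (-1 : ℤ) ^ (f.natDegree - 1) *
      (q : ℤ) ^ (f.natDegree * (normalizedFactors P).count f) * Psi F q P := by
  have hnf : normalizedFactors (f * P) = f ::ₘ normalizedFactors P := by
    rw [normalizedFactors_mul hf.ne_zero hP.ne_zero, normalizedFactors_irreducible hf,
      hfm.normalize_eq_self, Multiset.singleton_add]
  set A : Finset F[X] := insert f (normalizedFactors P).toFinset with hA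
  have h1 : (normalizedFactors (f * P)).toFinset ⊆ A := by
    rw [hnf, Multiset.toFinset_cons]
  have h2 : (normalizedFactors P).toFinset ⊆ A := Finset.subset_insert _ _
  rw [Psi_eq_prod F q _ h1, Psi_eq_prod F q _ h2, hnf]
  have hf' : f ∈ A := Finset.mem_insert_self _ _
  rw [← Finset.mul_prod_erase _ _ hf', ← Finset.mul_prod_erase _ _ hf']
  rw [Multiset.count_cons_self, term_succ]
  have : ∏ x ∈ A.erase f, term F q x (Multiset.count x (f ::ₘ normalizedFactors P)) =
      ∏ x ∈ A.erase f, term F q x (Multiset.count x (normalizedFactors P)) := by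
    apply Finset.prod_congr rfl
    intro x hx
    rw [Multiset.count_cons_of_ne (Finset.ne_of_mem_erase hx)]
  rw [this]
  ring

/-- The main formula. -/
theorem main_formula {q : ℕ} (hq : Nat.card F = q) [Finite F] (d : ℕ) :
    ∀ (N : Type u) [AddCommGroup N] [Module F N] [Module F[X] N] [IsScalarTower F F[X] N] [Finite N]
      [IsSemisimpleModule F[X] N] [Fintype (Submodule F[X] N)], Nat.card N ≤ d →
      (-1 : ℤ) ^ Module.finrank F N * Mob.mob (⊤ : Submodule F[X] N) = Psi F q (cp F N) := by
  classical
  induction d with
  | zero =>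
    intro N _ _ _ _ _ _ _ hT
    have : 0 < Nat.card N := Nat.card_pos
    omega
  | succ d ih =>
    intro N _ _ _ _ _ _ _ hT
    by_cases hsub : Subsingleton N
    · have h1 : cp F N = 1 := by
        apply Polynomial.eq_one_of_monic_natDegree_zero (cp_monic F N)
        rw [cp_natDegree, Module.finrank_zero_of_subsingleton]
      have h2 : (⊤ : Submodule F[X] N) = ⊥ := Subsingleton.elim _ _
      rw [h1, h2, Mob.mob_bot, Module.finrank_zero_of_subsingleton]
      simp [Psi, normalizedFactors_one]
    · have hnt : Nontrivial N := not_subsingleton_iff_nontrivial.mp hsub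
      have htop : (⊤ : Submodule F[X] N) ≠ ⊥ := top_ne_bot
      obtain ⟨S, hS, -⟩ := (eq_bot_or_exists_atom_le (⊤ : Submodule F[X] N)).resolve_left htop
      obtain ⟨T, hc⟩ := exists_isCompl S
      have hsim : IsSimpleModule F[X] S := isSimpleModule_iff_isAtom.mpr hS
      -- Weisner
      have hW : ∑ y ∈ Finset.univ.filter (fun y : Submodule F[X] N => y ⊔ S = ⊤), Mob.mob y = 0 := by
        convert Mob.weisner hS.1 ⊤ le_top
      have hset : (Finset.univ.filter fun y : Submodule F[X] N => y ⊔ S = ⊤) =
          insert ⊤ (Finset.univ.filter fun y : Submodule F[X] N => IsCompl S y) := by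
        ext y
        simp only [Finset.mem_filter, Finset.mem_univ, true_and, Finset.mem_insert]
        constructor
        · intro h
          by_cases hy : y = ⊤
          · exact Or.inl hy
          · refine Or.inr ⟨?_, by rw [codisjoint_iff, sup_comm]; exact h⟩
            rw [disjoint_iff]
            rcases hS.le_iff.mp (inf_le_left : S ⊓ y ≤ S) with h1 | h1
            · exact h1
            · exfalso
              apply hy
              rw [← h, sup_eq_left.mpr (inf_eq_left.mp h1)]
        · rintro (rfl | h)
          · simp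
          · rw [sup_comm]
            exact h.sup_eq_top
      have hnot : (⊤ : Submodule F[X] N) ∉
          (Finset.univ.filter fun y : Submodule F[X] N => IsCompl S y) := by
        simp only [Finset.mem_filter, Finset.mem_univ, true_and]
        intro h
        exact hS.1 (h.disjoint.eq_bot_of_le le_top)
      rw [hset, Finset.sum_insert hnot] at hW
      -- the value on complements
      have hcpN : cp F N = cp F S * cp F T := cp_compl F S T hc
      have hval : ∀ y ∈ (Finset.univ.filter fun y : Submodule F[X] N => IsCompl S y),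
          Mob.mob y = (-1 : ℤ) ^ Module.finrank F T * Psi F q (cp F T) := by
        intro y hy
        have hy' : IsCompl S y := (Finset.mem_filter.mp hy).2
        have hcy : cp F y = cp F T := by
          have h1 : cp F N = cp F S * cp F y := cp_compl F S y hy'
          exact mul_left_cancel₀ (cp_monic F S).ne_zero (h1.symm.trans hcpN)
        have hfin : Module.finrank F y = Module.finrank F T := by
          rw [← cp_natDegree, ← cp_natDegree, hcy]
        have hyne : y ≠ ⊤ := by
          rintro rfl
          exact hnot hy
        have hcard : Nat.card y < Nat.card N := by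
          obtain ⟨v, hv⟩ : ∃ v, v ∉ y := by
            by_contra hall
            push Not at hall
            exact hyne (eq_top_iff.mpr fun v _ => hall v)
          exact Finite.card_subtype_lt hv
        let _ : Fintype (Submodule F[X] y) := Fintype.ofFinite _
        have hIH := ih y (by omega)
        have hemb : Mob.mob (Submodule.MapSubtype.orderEmbedding y (⊤ : Submodule F[X] y)) =
            Mob.mob (⊤ : Submodule F[X] y) := by
          apply Mob.mob_embed
          · simp
          · intro a' b hb
            refine ⟨Submodule.comap y.subtype b, ?_⟩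
            have hle : b ≤ y := hb.trans (by simpa using Submodule.map_subtype_le y a')
            simp [hle]
        have hty : Submodule.MapSubtype.orderEmbedding y (⊤ : Submodule F[X] y) = y := by
          simp
        rw [hty] at hemb
        rw [hemb]
        rw [hcy, hfin] at hIH
        rw [← hIH, ← mul_assoc, ← mul_pow]
        simp
      rw [Finset.sum_congr rfl hval, Finset.sum_const, nsmul_eq_mul] at hW
      -- the number of complements
      have hcount : (Finset.univ.filter fun y : Submodule F[X] N => IsCompl S y).card =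
          Nat.card S ^ (normalizedFactors (cp F T)).count (cp F S) := by
        rw [← card_hom F (Nat.card T) T le_rfl, ← card_compl F S T hc,
          Nat.card_eq_fintype_card, Fintype.card_subtype]
      have hS_card : Nat.card S = q ^ (cp F S).natDegree := by
        rw [cp_natDegree, Module.natCard_eq_pow_finrank (K := F), hq]
      have hfin : Module.finrank F N = (cp F S).natDegree + Module.finrank F T := by
        rw [← cp_natDegree F N, ← cp_natDegree F T, hcpN,
          Polynomial.natDegree_mul (cp_monic F S).ne_zero (cp_monic F T).ne_zero]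
      have hdeg : 1 ≤ (cp F S).natDegree := (cp_irreducible F).natDegree_pos
      rw [hcpN, Psi_mul F q (cp_irreducible F) (cp_monic F S) (cp_monic F T)]
      rw [hcount, hS_card] at hW
      have hmob : Mob.mob (⊤ : Submodule F[X] N) =
          - (((q ^ (cp F S).natDegree) ^ (normalizedFactors (cp F T)).count (cp F S) : ℕ) : ℤ) *
            ((-1 : ℤ) ^ Module.finrank F T * Psi F q (cp F T)) := by
        linarith
      rw [hmob, hfin]
      obtain ⟨e, he⟩ : ∃ e, (cp F S).natDegree = e + 1 := ⟨(cp F S).natDegree - 1, by omega⟩
      rw [he]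
      simp only [Nat.add_sub_cancel]
      push_cast
      have hsq : (-1 : ℤ) ^ Module.finrank F T * (-1 : ℤ) ^ Module.finrank F T = 1 := by
        rw [← mul_pow]
        simp
      rw [pow_add, pow_add, pow_mul]
      generalize Psi F q (cp F T) = W at *
      generalize (-1 : ℤ) ^ Module.finrank F T = A at *
      generalize (-1 : ℤ) ^ e = B at *
      generalize ((q : ℤ) ^ (e + 1)) ^ (normalizedFactors (cp F T)).count (cp F S) = Y at *
      calc B * (-1) ^ 1 * A * (-Y * (A * W)) = B * Y * W * (A * A) := by ring
        _ = _ := by rw [hsq]; ring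

end Factors

end Cfsg.Agent.Lib.GLSt.Cp
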