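import Mathlib
import Cfsg.Prelude.Def_LinearParabolics
import Cfsg.Agent.Lib.GLSt.Mob

/-!
Standard partial flags of `F^n`, the action of the general linear group on them, and the number of
cosets of the stabilizer fixed by `x`, as a number of chains of `x`-invariant subspaces.
-/

set_option autoImplicit false
set_option linter.unusedSectionVars false

namespace Cfsg.Agent.Lib.GLSt.Flag

open Finset Polynomial
open scoped MatrixGroups

variable {n : ℕ} {F : Type*} [Field F]

/-- The standard subspace of dimension `j`. -/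
def E (n : ℕ) (F : Type*) [Field F] (j : ℕ) : Submodule F (Fin n → F) where
  carrier := {v | ∀ i : Fin n, j ≤ i.val → v i = 0}
  add_mem' := fun {a b} ha hb i hi => by
    simp [ha i hi, hb i hi]
  zero_mem' := fun _ _ => rfl
  smul_mem' := fun c v hv i hi => by
    simp [hv i hi]

theorem mem_E {j : ℕ} {v : Fin n → F} : v ∈ E n F j ↔ ∀ i : Fin n, j ≤ i.val → v i = 0 := Iff.rfl

/-- The dimension of the standard subspace. -/
theorem finrank_E {j : ℕ} (hj : j ≤ n) : Module.finrank F (E n F j) = j := by
  classical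
  let e : E n F j ≃ₗ[F] (Fin j → F) :=
    { toFun := fun v i => v.1 (Fin.castLE hj i)
      map_add' := fun _ _ => rfl
      map_smul' := fun _ _ => rfl
      invFun := fun w => ⟨fun i => if h : i.val < j then w ⟨i, h⟩ else 0, fun i hi => by
        have h1 : ¬ i.val < j := by omega
        simp [h1]⟩
      left_inv := fun v => by
        apply Subtype.ext
        funext i
        by_cases h : i.val < j
        · simp only [dif_pos h]
          rfl
        · simp only [dif_neg h]
          exact (v.2 i (by omega)).symm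
      right_inv := fun w => by
        funext i
        simp }
  rw [e.finrank_eq, Module.finrank_fin_fun]

theorem E_mono {j k : ℕ} (h : j ≤ k) : E n F j ≤ E n F k := fun _ hv i hi => hv i (h.trans hi)

/-- The action on subspaces. -/
noncomputable def act (g : GL (Fin n) F) (W : Submodule F (Fin n → F)) : Submodule F (Fin n → F) :=
  W.map (Matrix.mulVecLin (g : Matrix (Fin n) (Fin n) F))

theorem mem_act {g : GL (Fin n) F} {W : Submodule F (Fin n → F)} {v : Fin n → F} :
    v ∈ act g W ↔ ∃ w ∈ W, (g : Matrix (Fin n) (Fin n) F).mulVec w = v := by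
  simp [act, Submodule.mem_map]

theorem act_one (W : Submodule F (Fin n → F)) : act (1 : GL (Fin n) F) W = W := by
  ext v
  simp [mem_act]

theorem act_mul (g h : GL (Fin n) F) (W : Submodule F (Fin n → F)) :
    act (g * h) W = act g (act h W) := by
  ext v
  simp only [mem_act, Units.val_mul]
  constructor
  · rintro ⟨w, hw, rfl⟩
    exact ⟨_, ⟨w, hw, rfl⟩, by rw [Matrix.mulVec_mulVec]⟩
  · rintro ⟨_, ⟨w, hw, rfl⟩, rfl⟩
    exact ⟨w, hw, by rw [Matrix.mulVec_mulVec]⟩

theorem act_inv_act (g : GL (Fin n) F) (W : Submodule F (Fin n → F)) : act g⁻¹ (act g W) = W := by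
  rw [← act_mul, inv_mul_cancel, act_one]

theorem act_act_inv (g : GL (Fin n) F) (W : Submodule F (Fin n → F)) : act g (act g⁻¹ W) = W := by
  rw [← act_mul, mul_inv_cancel, act_one]

theorem act_mono (g : GL (Fin n) F) {W W' : Submodule F (Fin n → F)} (h : W ≤ W') : act g W ≤ act g W' :=
  Submodule.map_mono h

theorem act_le_iff (g : GL (Fin n) F) {W W' : Submodule F (Fin n → F)} :
    act g W ≤ act g W' ↔ W ≤ W' := by
  refine ⟨fun h => ?_, act_mono g⟩
  have := act_mono g⁻¹ h
  rwa [act_inv_act, act_inv_act] at this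

theorem act_injective (g : GL (Fin n) F) : Function.Injective (act g) := by
  intro W W' h
  rw [← act_inv_act g W, h, act_inv_act]

theorem mulVecLin_injective (g : GL (Fin n) F) :
    Function.Injective (Matrix.mulVecLin (g : Matrix (Fin n) (Fin n) F)) := by
  intro v w h
  have h1 : ((g⁻¹ * g : GL (Fin n) F) : Matrix (Fin n) (Fin n) F).mulVec v =
      ((g⁻¹ * g : GL (Fin n) F) : Matrix (Fin n) (Fin n) F).mulVec w := by
    rw [Units.val_mul, ← Matrix.mulVec_mulVec, ← Matrix.mulVec_mulVec]
    exact congrArg _ h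
  simpa using h1

theorem finrank_act (g : GL (Fin n) F) (W : Submodule F (Fin n → F)) :
    Module.finrank F (act g W) = Module.finrank F W :=
  (Submodule.equivMapOfInjective _ (mulVecLin_injective g) W).finrank_eq.symm

/-- The subspaces `E j` for `j ∈ J` are stable iff the matrix entries vanish. -/
theorem act_E_le_iff (g : GL (Fin n) F) (j : ℕ) :
    act g (E n F j) ≤ E n F j ↔ ∀ a b : Fin n, b.val < j → j ≤ a.val →
      (g : Matrix (Fin n) (Fin n) F) a b = 0 := by
  classical
  constructor
  · intro h a b hb ha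
    have h1 : (Pi.single b 1 : Fin n → F) ∈ E n F j := by
      intro i hi
      rw [Pi.single_apply, if_neg]
      intro hib
      rw [hib] at hi
      omega
    have h2 := h (mem_act.mpr ⟨_, h1, rfl⟩) a ha
    rw [Matrix.mulVec_single_one] at h2
    exact h2
  · rintro h v hv
    obtain ⟨w, hw, rfl⟩ := mem_act.mp hv
    intro a ha
    rw [Matrix.mulVec, dotProduct]
    apply Finset.sum_eq_zero
    intro b _
    by_cases hb : b.val < j
    · rw [h a b hb ha, zero_mul]
    · rw [hw b (by omega), mul_zero]

/-! ### Partial flags -/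

open Classical in
/-- The flag of type `J` attached to `g`. -/
noncomputable def Th (J : Finset ℕ) (g : GL (Fin n) F) : Finset (Submodule F (Fin n → F)) :=
  J.image fun j => act g (E n F j)

theorem mem_Th {J : Finset ℕ} {g : GL (Fin n) F} {W : Submodule F (Fin n → F)} :
    W ∈ Th J g ↔ ∃ j ∈ J, act g (E n F j) = W := by
  classical
  simp [Th]

section Stab

variable {J : Finset ℕ} (hJ : J ⊆ Ico 1 n) (P : Subgroup (GL (Fin n) F))
  (hP : ∀ g : GL (Fin n) F, g ∈ P ↔ ∀ j ∈ J, ∀ a b : Fin n, b.val < j → j ≤ a.val →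
    (g : Matrix (Fin n) (Fin n) F) a b = 0)

include hP in
theorem mem_P_iff (g : GL (Fin n) F) : g ∈ P ↔ ∀ j ∈ J, act g (E n F j) ≤ E n F j := by
  rw [hP]
  exact forall₂_congr fun j _ => (act_E_le_iff g j).symm

include hJ in
theorem le_of_mem {j : ℕ} (hj : j ∈ J) : j ≤ n := (mem_Ico.mp (hJ hj)).2.le

include hJ in
theorem finrank_act_E (g : GL (Fin n) F) {j : ℕ} (hj : j ∈ J) :
    Module.finrank F (act g (E n F j)) = j := by
  rw [finrank_act, finrank_E (le_of_mem hJ hj)]

variable [Finite F]

include hJ hP in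
theorem eq_of_mem_P {g : GL (Fin n) F} (hg : g ∈ P) {j : ℕ} (hj : j ∈ J) :
    act g (E n F j) = E n F j := by
  apply Submodule.eq_of_le_of_finrank_eq ((mem_P_iff P hP g).mp hg j hj)
  rw [finrank_act_E hJ g hj, finrank_E (le_of_mem hJ hj)]

include hJ hP in
theorem Th_eq_of_mem {g h : GL (Fin n) F} (hh : h ∈ P) : Th J (g * h) = Th J g := by
  classical
  apply Finset.image_congr
  intro j hj
  show act (g * h) (E n F j) = act g (E n F j)
  rw [act_mul, eq_of_mem_P hJ P hP hh hj]

include hJ hP in
theorem mem_of_Th_eq {g h : GL (Fin n) F} (hh : Th J g = Th J h) : g⁻¹ * h ∈ P := by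
  rw [mem_P_iff P hP]
  intro j hj
  have h1 : act h (E n F j) ∈ Th J g := by
    rw [hh]
    exact mem_Th.mpr ⟨j, hj, rfl⟩
  obtain ⟨j', hj', he⟩ := mem_Th.mp h1
  have h2 : j' = j := by
    rw [← finrank_act_E hJ g hj', he, finrank_act_E hJ h hj]
  subst h2
  rw [act_mul, ← he, act_inv_act]

include hJ hP in
/-- Fixed cosets are the invariant flags. -/
theorem fixed_iff (x g : GL (Fin n) F) :
    (x • (QuotientGroup.mk g : GL (Fin n) F ⧸ P) = QuotientGroup.mk g) ↔
      ∀ W ∈ Th J g, act x W ≤ W := by
  have h1 : (x • (QuotientGroup.mk g : GL (Fin n) F ⧸ P) = QuotientGroup.mk g) ↔ g⁻¹ * (x * g) ∈ P := by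
    rw [MulAction.Quotient.smul_mk, smul_eq_mul]
    rw [eq_comm, QuotientGroup.eq]
  rw [h1, mem_P_iff P hP]
  constructor
  · intro h W hW
    obtain ⟨j, hj, rfl⟩ := mem_Th.mp hW
    have := h j hj
    rw [act_mul, act_mul, ← act_le_iff g, act_act_inv] at this
    exact this
  · intro h j hj
    have := h _ (mem_Th.mpr ⟨j, hj, rfl⟩)
    rw [act_mul, act_mul, ← act_le_iff g, act_act_inv]
    exact this

end Stab

/-! ### Adapted bases -/

section Adapted

variable [Finite F]

/-- Linearly independent vectors inside a sequence of large subspaces. -/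
theorem exists_li (A : ℕ → Submodule F (Fin n → F))
    (hA : ∀ i < n, i + 1 ≤ Module.finrank F (A i)) (m : ℕ) (hm : m ≤ n) :
    ∃ b : Fin m → (Fin n → F), LinearIndependent F b ∧ ∀ i : Fin m, b i ∈ A i.val := by
  induction m with
  | zero => exact ⟨Fin.elim0, linearIndependent_empty_type, fun i => i.elim0⟩
  | succ m ih =>
    obtain ⟨b, hb, hbA⟩ := ih (by omega)
    have hrank : Module.finrank F (Submodule.span F (Set.range b)) = m := by
      rw [finrank_span_eq_card hb, Fintype.card_fin]
    obtain ⟨v, hv, hv'⟩ : ∃ v ∈ A m, v ∉ Submodule.span F (Set.range b) := by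
      by_contra hcon
      push Not at hcon
      have hle : A m ≤ Submodule.span F (Set.range b) := hcon
      have := Submodule.finrank_mono hle
      have h2 := hA m (by omega)
      omega
    refine ⟨Fin.snoc b v, (linearIndependent_finSnoc).mpr ⟨hb, hv'⟩, fun i => ?_⟩
    refine Fin.lastCases ?_ (fun i => ?_) i
    · simpa using hv
    · simpa using hbA i

theorem exists_bot {C : Finset (Submodule F (Fin n → F))} (hC : C.Nonempty)
    (hch : IsChain (· ≤ ·) (C : Set (Submodule F (Fin n → F)))) :
    ∃ b ∈ C, ∀ c ∈ C, b ≤ c := by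
  classical
  obtain ⟨b, hb⟩ := C.exists_minimal hC
  refine ⟨b, hb.1, fun c hc => ?_⟩
  rcases hch.total (show c ∈ (C : Set _) from hc) (show b ∈ (C : Set _) from hb.1) with h | h
  · exact hb.2 hc h
  · exact h

open Classical in
/-- A chain of subspaces with the dimensions in `J` is the image of the standard flag. -/
theorem exists_g {J : Finset ℕ} {C : Finset (Submodule F (Fin n → F))}
    (hch : IsChain (· ≤ ·) (C : Set (Submodule F (Fin n → F))))
    (hdim : C.image (fun W : Submodule F (Fin n → F) => Module.finrank F W) = J) :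
    ∃ g : GL (Fin n) F, Th J g = C := by
  classical
  let A : ℕ → Submodule F (Fin n → F) := fun i =>
    (C.filter fun W : Submodule F (Fin n → F) => i + 1 ≤ Module.finrank F W).inf id
  have hA : ∀ i < n, i + 1 ≤ Module.finrank F (A i) := by
    intro i hi
    by_cases hne : (C.filter fun W : Submodule F (Fin n → F) => i + 1 ≤ Module.finrank F W).Nonempty
    · obtain ⟨b, hb, hb'⟩ := exists_bot hne (hch.mono (by
        intro W hW
        have h1 : W ∈ C.filter fun W : Submodule F (Fin n → F) => i + 1 ≤ Module.finrank F W := by exact_mod_cast hW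
        exact_mod_cast (mem_filter.mp h1).1))
      have : A i = b := le_antisymm (Finset.inf_le hb) (Finset.le_inf hb')
      rw [this]
      exact (mem_filter.mp hb).2
    · rw [not_nonempty_iff_eq_empty] at hne
      have : A i = ⊤ := by
        show (C.filter fun W : Submodule F (Fin n → F) => i + 1 ≤ Module.finrank F W).inf id = ⊤
        rw [hne, inf_empty]
      rw [this, finrank_top, Module.finrank_fin_fun]
      omega
  obtain ⟨b, hb, hbA⟩ := exists_li A hA n le_rfl
  have hunit : IsUnit (Matrix.of fun a k => b k a : Matrix (Fin n) (Fin n) F) := by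
    apply Matrix.linearIndependent_cols_iff_isUnit.mp
    have h1 : (Matrix.of fun a k => b k a : Matrix (Fin n) (Fin n) F).col = b := by
      ext k a
      rfl
    rw [h1]
    exact hb
  let g : GL (Fin n) F := hunit.unit
  have hg : (g : Matrix (Fin n) (Fin n) F) = Matrix.of fun a k => b k a := hunit.unit_spec
  have hmain : ∀ W ∈ C, act g (E n F (Module.finrank F W)) = W := by
    intro W hW
    have hfin : Module.finrank F W ≤ n := by
      have := Submodule.finrank_le W
      rwa [Module.finrank_fin_fun] at this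
    apply Submodule.eq_of_le_of_finrank_eq
    · rintro v hv
      obtain ⟨w, hw, rfl⟩ := mem_act.mp hv
      have hsum : (g : Matrix (Fin n) (Fin n) F).mulVec w = ∑ k, w k • b k := by
        rw [hg]
        funext a
        simp [Matrix.mulVec, dotProduct, Finset.sum_apply, mul_comm]
      rw [hsum]
      apply Submodule.sum_mem
      intro k _
      by_cases hk : k.val < Module.finrank F W
      · apply Submodule.smul_mem
        have h1 : A k.val ≤ W := Finset.inf_le (mem_filter.mpr ⟨hW, by omega⟩)
        apply h1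
        convert hbA k using 1
      · rw [hw k (by omega), zero_smul]
        exact Submodule.zero_mem _
    · rw [finrank_act, finrank_E hfin]
  refine ⟨g, ?_⟩
  ext W
  rw [mem_Th]
  constructor
  · rintro ⟨j, hj, rfl⟩
    rw [← hdim, mem_image] at hj
    obtain ⟨W, hW, rfl⟩ := hj
    rw [hmain W hW]
    exact hW
  · intro hW
    refine ⟨Module.finrank F W, ?_, hmain W hW⟩
    rw [← hdim]
    exact mem_image_of_mem _ hW

end Adapted

/-! ### Invariant subspaces as submodules over the polynomial ring -/

section Link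

variable (x : GL (Fin n) F)

/-- The endomorphism of `x`. -/
noncomputable abbrev ph : Module.End F (Fin n → F) := Matrix.mulVecLin (x : Matrix (Fin n) (Fin n) F)

/-- The lattice of invariant subspaces. -/
abbrev LL := Submodule F[X] (Module.AEval' (ph x))

/-- The invariant subspace attached to a submodule. -/
noncomputable def toF (W : LL x) : Submodule F (Fin n → F) :=
  (W.restrictScalars F).comap ((Module.AEval'.of (ph x)).toLinearMap)

theorem mem_toF {W : LL x} {v : Fin n → F} : v ∈ toF x W ↔ Module.AEval'.of (ph x) v ∈ W := Iff.rfl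

theorem toF_le_iff {W W' : LL x} : toF x W ≤ toF x W' ↔ W ≤ W' := by
  constructor
  · intro h m hm
    obtain ⟨v, rfl⟩ := (Module.AEval'.of (ph x)).surjective m
    exact h hm
  · intro h v hv
    exact h hv

theorem toF_injective : Function.Injective (toF x) := fun _ _ h =>
  le_antisymm ((toF_le_iff x).mp h.le) ((toF_le_iff x).mp h.ge)

theorem act_toF_le (W : LL x) : act x (toF x W) ≤ toF x W := by
  intro v hv
  obtain ⟨w, hw, rfl⟩ := mem_act.mp hv
  rw [mem_toF]
  have h1 := W.smul_mem (X : F[X]) ((mem_toF x).mp hw)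
  rw [Module.AEval'.X_smul_of] at h1
  exact h1

theorem exists_toF (W0 : Submodule F (Fin n → F)) (h : act x W0 ≤ W0) : ∃ W, toF x W = W0 := by
  have hinv : W0 ∈ (Algebra.lsmul F F (Fin n → F) (ph x)).invtSubmodule := by
    rw [Module.End.mem_invtSubmodule]
    intro v hv
    exact h (mem_act.mpr ⟨v, hv, rfl⟩)
  refine ⟨Module.AEval.mapSubmodule F (Fin n → F) (ph x) ⟨W0, hinv⟩, ?_⟩
  ext v
  rw [mem_toF, Module.AEval.mem_mapSubmodule_apply]
  simp

theorem toF_bot : toF x (⊥ : LL x) = ⊥ := by
  ext v
  rw [mem_toF]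
  simp

theorem toF_top : toF x (⊤ : LL x) = ⊤ := by
  ext v
  rw [mem_toF]
  simp

variable [Finite F] [Fintype (LL x)]

/-- The number of fixed cosets is the number of chains with prescribed dimensions. -/
theorem card_fixed {J : Finset ℕ} (hJ : J ⊆ Ico 1 n) (P : Subgroup (GL (Fin n) F))
    (hP : ∀ g : GL (Fin n) F, g ∈ P ↔ ∀ j ∈ J, ∀ a b : Fin n, b.val < j → j ≤ a.val →
      (g : Matrix (Fin n) (Fin n) F) a b = 0) :
    open Classical in
    Nat.card (MulAction.fixedBy (GL (Fin n) F ⧸ P) x) =
      ((Mob.Ch (⊤ : LL x)).filter fun C =>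
        C.image (fun W : LL x => Module.finrank F (toF x W)) = J).card := by
  classical
  have hinj : ∀ S : Finset (Submodule F (Fin n → F)), Set.InjOn (toF x) (toF x ⁻¹' (S : Set _)) :=
    fun _ => (toF_injective x).injOn
  let Cof : GL (Fin n) F → Finset (LL x) := fun g => (Th J g).preimage (toF x) (hinj _)
  have hmemCof : ∀ g c, c ∈ Cof g ↔ toF x c ∈ Th J g := by
    intro g c
    exact mem_preimage
  have hspec : ∀ g, (∀ W ∈ Th J g, act x W ≤ W) → (Cof g).image (toF x) = Th J g := by
    intro g hg
    ext W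
    rw [mem_image]
    constructor
    · rintro ⟨W', h, rfl⟩
      exact (hmemCof g W').mp h
    · intro hW
      obtain ⟨W', rfl⟩ := exists_toF x W (hg W hW)
      exact ⟨W', (hmemCof g W').mpr hW, rfl⟩
  have hmem : ∀ g, (∀ W ∈ Th J g, act x W ≤ W) →
      Cof g ∈ ((Mob.Ch (⊤ : LL x)).filter fun C =>
        C.image (fun W : LL x => Module.finrank F (toF x W)) = J) := by
    intro g hg
    rw [mem_filter, Mob.mem_Ch]
    refine ⟨⟨fun c hc => ?_, ?_⟩, ?_⟩
    · obtain ⟨j, hj, he⟩ := mem_Th.mp ((hmemCof g c).mp hc)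
      have hj' := mem_Ico.mp (hJ hj)
      have hfin : Module.finrank F (toF x c) = j := by
        rw [← he, finrank_act_E hJ g hj]
      constructor
      · rw [bot_lt_iff_ne_bot]
        rintro rfl
        rw [toF_bot, finrank_bot] at hfin
        omega
      · rw [lt_top_iff_ne_top]
        rintro rfl
        rw [toF_top, finrank_top, Module.finrank_fin_fun] at hfin
        omega
    · intro c hc c' hc' _
      obtain ⟨j, -, he⟩ := mem_Th.mp ((hmemCof g c).mp hc)
      obtain ⟨j', -, he'⟩ := mem_Th.mp ((hmemCof g c').mp hc')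
      rcases le_total j j' with h | h
      · left
        show c ≤ c'
        rw [← toF_le_iff x, ← he, ← he']
        exact act_mono g (E_mono h)
      · right
        show c' ≤ c
        rw [← toF_le_iff x, ← he, ← he']
        exact act_mono g (E_mono h)
    · have h1 : (Cof g).image (fun W : LL x => Module.finrank F (toF x W)) =
          ((Cof g).image (toF x)).image (fun W : Submodule F (Fin n → F) => Module.finrank F W) := by
        rw [image_image]
        rfl
      rw [h1, hspec g hg]
      ext j
      simp only [mem_image]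
      constructor
      · rintro ⟨W, hW, rfl⟩
        obtain ⟨j, hj, rfl⟩ := mem_Th.mp hW
        rwa [finrank_act_E hJ g hj]
      · intro hj
        exact ⟨_, mem_Th.mpr ⟨j, hj, rfl⟩, finrank_act_E hJ g hj⟩
  have hfixed : ∀ q : MulAction.fixedBy (GL (Fin n) F ⧸ P) x,
      ∀ W ∈ Th J q.1.out, act x W ≤ W := by
    intro q
    rw [← fixed_iff hJ P hP, QuotientGroup.out_eq']
    exact q.2
  have hcard := Nat.card_eq_fintype_card (α := ↥((Mob.Ch (⊤ : LL x)).filter fun C =>
        C.image (fun W : LL x => Module.finrank F (toF x W)) = J))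
  rw [Fintype.card_coe] at hcard
  rw [← hcard]
  apply Nat.card_eq_of_bijective (fun q => ⟨Cof q.1.out, hmem _ (hfixed q)⟩)
  constructor
  · intro q q' h
    have h1 : Cof q.1.out = Cof q'.1.out := congrArg Subtype.val h
    have h2 : Th J q.1.out = Th J q'.1.out := by
      rw [← hspec _ (hfixed q), ← hspec _ (hfixed q'), h1]
    have h3 := mem_of_Th_eq hJ P hP h2
    apply Subtype.ext
    rw [← QuotientGroup.out_eq' q.1, ← QuotientGroup.out_eq' q'.1]
    exact QuotientGroup.eq.mpr h3
  · rintro ⟨C, hC⟩
    rw [mem_filter, Mob.mem_Ch] at hC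
    obtain ⟨⟨-, hch⟩, hdim⟩ := hC
    have hch' : IsChain (· ≤ ·) ((C.image (toF x) : Finset _) : Set (Submodule F (Fin n → F))) := by
      intro a ha b hb _
      simp only [coe_image, Set.mem_image, mem_coe] at ha hb
      obtain ⟨a, ha, rfl⟩ := ha
      obtain ⟨b, hb, rfl⟩ := hb
      by_cases hab : a = b
      · subst hab
        exact Or.inl le_rfl
      · rcases hch ha hb hab with h | h
        · exact Or.inl ((toF_le_iff x).mpr h)
        · exact Or.inr ((toF_le_iff x).mpr h)
    have hdim' : (C.image (toF x)).image (fun W : Submodule F (Fin n → F) => Module.finrank F W) = J := by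
      rw [image_image]
      exact hdim
    obtain ⟨g, hg⟩ := exists_g hch' hdim'
    have hinvg : ∀ W ∈ Th J g, act x W ≤ W := by
      intro W hW
      rw [hg, mem_image] at hW
      obtain ⟨c, -, rfl⟩ := hW
      exact act_toF_le x c
    have hfix : (QuotientGroup.mk g : GL (Fin n) F ⧸ P) ∈ MulAction.fixedBy (GL (Fin n) F ⧸ P) x :=
      (fixed_iff hJ P hP x g).mpr hinvg
    refine ⟨⟨_, hfix⟩, ?_⟩
    apply Subtype.ext
    obtain ⟨h, hh⟩ := QuotientGroup.mk_out_eq_mul P g
    show Cof (QuotientGroup.mk g : GL (Fin n) F ⧸ P).out = C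
    rw [hh]
    ext c
    rw [hmemCof, Th_eq_of_mem hJ P hP h.2, hg, mem_image]
    constructor
    · rintro ⟨c', hc', he⟩
      rwa [← toF_injective x he]
    · intro hc
      exact ⟨c, hc, rfl⟩

end Link

end Cfsg.Agent.Lib.GLSt.Flag
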