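import Mathlib
import Cfsg.Prelude.Def_LinearParabolics
import Cfsg.Agent.S2420

/-!
The permutations occurring in the alternating sum for `ν = (1, …, 1)`: they correspond to subsets of
`{1, …, n-1}`, the sign being determined by the size of the subset, and the parabolic subgroups are
the stabilizers of the corresponding partial standard flags.
-/

set_option autoImplicit false
set_option linter.unusedSectionVars false

namespace Cfsg.Agent.Lib.GLSt.PermC

open Finset Equiv
open Cfsg.Agent.S2420

variable {n : ℕ}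

/-- The condition on the permutations. -/
def Good (κ : Perm (Fin n)) : Prop := ∀ i : Fin n, (κ i).val ≤ 1 + i.val

/-- The set of cut points of a permutation. -/
def Jof (κ : Perm (Fin n)) : Finset ℕ :=
  (Ico 1 n).filter fun a => ∀ i : Fin n, i.val < a → (κ i).val < a

theorem mem_Jof {κ : Perm (Fin n)} {a : ℕ} :
    a ∈ Jof κ ↔ 1 ≤ a ∧ a < n ∧ ∀ i : Fin n, i.val < a → (κ i).val < a := by
  simp [Jof, and_assoc]

/-- Value on successors for `p = 0`. -/
theorem val_succ_zero (e : Perm (Fin (n + 1))) (i : Fin (n + 1)) :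
    (Perm.decomposeFin.symm ((0 : Fin (n + 2)), e) i.succ).val = (e i).val + 1 := by
  rw [Perm.decomposeFin_symm_apply_succ]
  simp

/-- Value on successors for `p = 1`. -/
theorem val_succ_one (e : Perm (Fin (n + 1))) (i : Fin (n + 1)) :
    (Perm.decomposeFin.symm ((1 : Fin (n + 2)), e) i.succ).val =
      if (e i).val = 0 then 0 else (e i).val + 1 := by
  rw [Perm.decomposeFin_symm_apply_succ, swap_apply_def]
  rw [if_neg (Fin.succ_ne_zero _)]
  by_cases h : (e i).val = 0
  · have h1 : (e i).succ = 1 := by
      apply Fin.ext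
      simp [h]
    rw [if_pos h1, if_pos h]
    rfl
  · have h1 : (e i).succ ≠ 1 := by
      intro h2
      apply h
      have h3 := congrArg Fin.val h2
      simp at h3
      rw [h3]
      rfl
    rw [if_neg h1, if_neg h]
    simp

theorem val_zero_apply (p : Fin (n + 2)) (e : Perm (Fin (n + 1))) :
    (Perm.decomposeFin.symm (p, e) 0).val = p.val := by
  rw [Perm.decomposeFin_symm_apply_zero]

theorem good_zero (e : Perm (Fin (n + 1))) :
    Good (Perm.decomposeFin.symm ((0 : Fin (n + 2)), e)) ↔ Good e := by
  rw [Good, Fin.forall_fin_succ]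
  simp only [val_zero_apply, val_succ_zero, Fin.val_succ]
  constructor
  · rintro ⟨-, h⟩ i
    have := h i
    show (e i).val ≤ 1 + i.val
    omega
  · intro h
    refine ⟨by simp, fun i => ?_⟩
    have := h i
    omega

theorem good_one (e : Perm (Fin (n + 1))) :
    Good (Perm.decomposeFin.symm ((1 : Fin (n + 2)), e)) ↔ Good e := by
  rw [Good, Fin.forall_fin_succ]
  simp only [val_zero_apply, val_succ_one, Fin.val_succ]
  constructor
  · rintro ⟨-, h⟩ i
    have := h i
    show (e i).val ≤ 1 + i.val
    split_ifs at this with h0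
    · omega
    · omega
  · intro h
    refine ⟨by simp, fun i => ?_⟩
    have := h i
    split_ifs with h0
    · omega
    · omega

theorem not_good_of_two_le (p : Fin (n + 2)) (hp : 2 ≤ p.val) (e : Perm (Fin (n + 1))) :
    ¬ Good (Perm.decomposeFin.symm (p, e)) := by
  intro h
  have := h 0
  rw [val_zero_apply] at this
  simp at this
  omega

theorem Jof_zero (e : Perm (Fin (n + 1))) :
    Jof (Perm.decomposeFin.symm ((0 : Fin (n + 2)), e)) = insert 1 ((Jof e).image (· + 1)) := by
  ext a
  rw [mem_Jof, mem_insert, mem_image, Fin.forall_fin_succ]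
  simp only [val_zero_apply, val_succ_zero, Fin.val_succ, mem_Jof]
  constructor
  · rintro ⟨h1, h2, -, h3⟩
    by_cases ha : a = 1
    · exact Or.inl ha
    · refine Or.inr ⟨a - 1, ⟨by omega, by omega, fun i hi => ?_⟩, by omega⟩
      have := h3 i (by omega)
      omega
  · rintro (rfl | ⟨b, ⟨h1, h2, h3⟩, rfl⟩)
    · refine ⟨le_rfl, by omega, by simp, fun i hi => ?_⟩
      omega
    · refine ⟨by omega, by omega, by simp, fun i hi => ?_⟩
      have := h3 i (by omega)
      omega

theorem Jof_one (e : Perm (Fin (n + 1))) :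
    Jof (Perm.decomposeFin.symm ((1 : Fin (n + 2)), e)) = (Jof e).image (· + 1) := by
  ext a
  rw [mem_Jof, mem_image, Fin.forall_fin_succ]
  simp only [val_zero_apply, val_succ_one, Fin.val_succ, mem_Jof]
  constructor
  · rintro ⟨h1, h2, h0, h3⟩
    have h4 : a ≠ 1 := by
      rintro rfl
      have := h0 (by simp)
      simp at this
    refine ⟨a - 1, ⟨by omega, by omega, fun i hi => ?_⟩, by omega⟩
    have := h3 i (by omega)
    split_ifs at this with h5
    · omega
    · omega
  · rintro ⟨b, ⟨h1, h2, h3⟩, rfl⟩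
    refine ⟨by omega, by omega, by simp; omega, fun i hi => ?_⟩
    have := h3 i (by omega)
    split_ifs with h5
    · omega
    · omega

/-- The sum over subsets of the next interval. -/
theorem sum_powerset_succ {A : Type*} [AddCommGroup A] (m : ℕ) (h : Finset ℕ → A) :
    ∑ J ∈ (Ico 1 (m + 2)).powerset, ((-1 : ℤ) ^ J.card) • h J =
      ∑ J ∈ (Ico 1 (m + 1)).powerset, ((-1 : ℤ) ^ J.card) •
        (h (J.image (· + 1)) - h (insert 1 (J.image (· + 1)))) := by
  have hIco : Ico 1 (m + 2) = insert 1 ((Ico 1 (m + 1)).image (· + 1)) := by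
    ext a
    simp only [mem_Ico, mem_insert, mem_image]
    constructor
    · rintro ⟨h1, h2⟩
      by_cases ha : a = 1
      · exact Or.inl ha
      · exact Or.inr ⟨a - 1, by omega, by omega⟩
    · rintro (rfl | ⟨b, h1, rfl⟩)
      · omega
      · omega
  have hnot : 1 ∉ (Ico 1 (m + 1)).image (· + 1) := by
    simp only [mem_image, mem_Ico]
    rintro ⟨b, h1, h2⟩
    omega
  have hinj : Function.Injective (· + 1 : ℕ → ℕ) := add_left_injective 1
  rw [hIco, sum_powerset_insert hnot]
  have himage : ∀ (G : Finset ℕ → A), ∑ J ∈ ((Ico 1 (m + 1)).image (· + 1)).powerset, G J =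
      ∑ J ∈ (Ico 1 (m + 1)).powerset, G (J.image (· + 1)) := by
    intro G
    symm
    refine Finset.sum_bij' (fun J _ => J.image (· + 1)) (fun J _ => J.preimage (· + 1) hinj.injOn)
      ?_ ?_ ?_ ?_ ?_
    · intro J hJ
      exact mem_powerset.mpr (image_subset_image (mem_powerset.mp hJ))
    · intro J hJ
      rw [mem_powerset] at hJ ⊢
      intro a ha
      have h1 := hJ (mem_preimage.mp ha)
      rw [mem_image] at h1
      obtain ⟨b, hb, hba⟩ := h1
      have : b = a := hinj hba
      rwa [← this]
    · intro J _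
      ext a
      simp only [mem_preimage, mem_image]
      constructor
      · rintro ⟨b, hb, hba⟩
        rwa [← hinj hba]
      · intro h
        exact ⟨a, h, rfl⟩
    · intro J hJ
      rw [mem_powerset] at hJ
      ext a
      simp only [mem_image, mem_preimage]
      constructor
      · rintro ⟨b, hb, rfl⟩
        exact hb
      · intro ha
        have h1 := hJ ha
        rw [mem_image] at h1
        obtain ⟨b, -, rfl⟩ := h1
        exact ⟨b, ha, rfl⟩
    · intro J _
      rfl
  rw [himage, himage, ← sum_add_distrib]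
  apply sum_congr rfl
  intro J hJ
  have hn : 1 ∉ J.image (· + 1) := by
    simp only [mem_image]
    rintro ⟨b, hb, h2⟩
    have h3 := mem_Ico.mp (mem_powerset.mp hJ hb)
    omega
  rw [card_insert_of_notMem hn, card_image_of_injective _ hinj, pow_succ, smul_sub]
  simp [sub_eq_add_neg, mul_neg, neg_smul]

open Classical in
theorem sum_good_base {A : Type*} [AddCommGroup A] (h : Finset ℕ → A) :
    ∑ κ : Perm (Fin 1), (if Good κ then ((Perm.sign κ : ℤ)) • h (Jof κ) else 0) =
      ((-1 : ℤ) ^ 0) • ∑ J ∈ (Ico 1 1).powerset, ((-1 : ℤ) ^ J.card) • h J := by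
  have hJ : Jof (1 : Perm (Fin 1)) = ∅ := by
    simp [Jof]
  have hg : Good (1 : Perm (Fin 1)) := by
    intro i
    simp
  rw [Fintype.sum_unique]
  have h1 : (default : Perm (Fin 1)) = 1 := Subsingleton.elim _ _
  rw [h1, if_pos hg, hJ]
  simp

open Classical in
/-- The alternating sum over the good permutations is an alternating sum over sets of cut points. -/
theorem sum_good {A : Type*} [AddCommGroup A] (n : ℕ) (h : Finset ℕ → A) :
    ∑ κ : Perm (Fin (n + 1)), (if Good κ then ((Perm.sign κ : ℤ)) • h (Jof κ) else 0) =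
      ((-1 : ℤ) ^ n) • ∑ J ∈ (Ico 1 (n + 1)).powerset, ((-1 : ℤ) ^ J.card) • h J := by
  classical
  induction n generalizing h with
  | zero => exact sum_good_base h
  | succ n ih =>
    rw [sum_powerset_succ, ← Equiv.sum_comp Perm.decomposeFin.symm, Fintype.sum_prod_type]
    have hsplit : ∀ F : Fin (n + 2) → A, (∀ p : Fin (n + 2), 2 ≤ p.val → F p = 0) →
        ∑ p, F p = F 0 + F 1 := by
      intro F hF
      rw [Fin.sum_univ_succ, Fin.sum_univ_succ]
      have : ∑ i : Fin n, F i.succ.succ = 0 := by
        apply sum_eq_zero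
        intro i _
        apply hF
        simp
      rw [this, add_zero]
      rfl
    rw [hsplit]
    swap
    · intro p hp
      apply sum_eq_zero
      intro e _
      rw [if_neg (not_good_of_two_le p hp e)]
    rw [← sum_add_distrib]
    have hterm : ∀ e : Perm (Fin (n + 1)),
        (if Good (Perm.decomposeFin.symm ((0 : Fin (n + 2)), e)) then
            ((Perm.sign (Perm.decomposeFin.symm ((0 : Fin (n + 2)), e)) : ℤ)) •
              h (Jof (Perm.decomposeFin.symm ((0 : Fin (n + 2)), e))) else 0) +
          (if Good (Perm.decomposeFin.symm ((1 : Fin (n + 2)), e)) then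
            ((Perm.sign (Perm.decomposeFin.symm ((1 : Fin (n + 2)), e)) : ℤ)) •
              h (Jof (Perm.decomposeFin.symm ((1 : Fin (n + 2)), e))) else 0) =
          if Good e then ((Perm.sign e : ℤ)) •
            (h (insert 1 ((Jof e).image (· + 1))) - h ((Jof e).image (· + 1))) else 0 := by
      intro e
      simp only [good_zero, good_one, Jof_zero, Jof_one, Perm.decomposeFin.symm_sign]
      by_cases hg : Good e
      · rw [if_pos hg, if_pos hg, if_pos hg]
        simp only [if_true]
        have h1 : (1 : Fin (n + 2)) ≠ 0 := by simp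
        rw [if_neg h1]
        simp only [one_mul, Units.val_neg, neg_mul, neg_smul, smul_sub]
        abel
      · simp [hg]
    simp only [hterm]
    rw [ih (fun J => h (insert 1 (J.image (· + 1))) - h (J.image (· + 1)))]
    rw [pow_succ, mul_neg_one, neg_smul, ← smul_neg, ← sum_neg_distrib]
    congr 1
    apply sum_congr rfl
    intro J _
    rw [← smul_neg, neg_sub]

/-! ### The parabolic subgroup -/

/-- The composition attached to a permutation. -/
def cmp (κ : Perm (Fin n)) : Fin n → ℕ := fun i => 1 + i.val - (κ i).val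

/-- The invariant: `T c` is the unique element of `[0, c]` missed by `κ` on `[0, c)`. -/
theorem inv_T {κ : Perm (Fin n)} (hκ : Good κ) (c : ℕ) (hc : c ≤ n) :
    T (cmp κ) c ≤ c ∧ (∀ i : Fin n, i.val < c → (κ i).val ≠ T (cmp κ) c ∧ (κ i).val ≤ c) ∧
      ∀ y ≤ c, y ≠ T (cmp κ) c → ∃ i : Fin n, i.val < c ∧ (κ i).val = y := by
  induction c with
  | zero =>
    rw [T_zero]
    refine ⟨le_rfl, fun i hi => absurd hi (Nat.not_lt_zero _), fun y hy hne => ?_⟩
    omega
  | succ c ih =>
    obtain ⟨h1, h2, h3⟩ := ih (by omega)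
    set a : Fin n := ⟨c, by omega⟩ with ha
    have haval : a.val = c := rfl
    have hsucc : T (cmp κ) (c + 1) = T (cmp κ) c + (1 + c - (κ a).val) := T_succ (cmp κ) a
    have hle : (κ a).val ≤ 1 + c := hκ a
    have hcases : (κ a).val = c + 1 ∨ (κ a).val = T (cmp κ) c := by
      by_contra hcon
      push Not at hcon
      obtain ⟨i, hi, hi'⟩ := h3 (κ a).val (by omega) hcon.2
      have : i = a := κ.injective (Fin.ext hi')
      rw [this] at hi
      omega
    rcases hcases with h | h
    · have hT : T (cmp κ) (c + 1) = T (cmp κ) c := by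
        rw [hsucc, h]
        omega
      rw [hT]
      refine ⟨by omega, fun i hi => ?_, fun y hy hne => ?_⟩
      · by_cases hic : i.val < c
        · exact ⟨(h2 i hic).1, by have := (h2 i hic).2; omega⟩
        · have : i = a := Fin.ext (by rw [haval]; omega)
          rw [this, h]
          omega
      · by_cases hyc : y ≤ c
        · obtain ⟨i, hi, hi'⟩ := h3 y hyc hne
          exact ⟨i, by omega, hi'⟩
        · exact ⟨a, by rw [haval]; omega, by rw [h]; omega⟩
    · have hT : T (cmp κ) (c + 1) = c + 1 := by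
        rw [hsucc, h]
        omega
      rw [hT]
      refine ⟨le_rfl, fun i hi => ?_, fun y hy hne => ?_⟩
      · by_cases hic : i.val < c
        · have := (h2 i hic).2
          omega
        · have : i = a := Fin.ext (by rw [haval]; omega)
          rw [this, h]
          omega
      · by_cases hyT : y = T (cmp κ) c
        · exact ⟨a, by rw [haval]; omega, by rw [h, hyT]⟩
        · obtain ⟨i, hi, hi'⟩ := h3 y (by omega) hyT
          exact ⟨i, by omega, hi'⟩

theorem T_of_mem {κ : Perm (Fin n)} (hκ : Good κ) {a : ℕ} (ha : a ∈ Jof κ) : T (cmp κ) a = a := by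
  obtain ⟨h1, h2, h3⟩ := mem_Jof.mp ha
  obtain ⟨-, -, h5⟩ := inv_T hκ a h2.le
  by_contra hne
  obtain ⟨i, hi, hi'⟩ := h5 a le_rfl (Ne.symm hne)
  have := h3 i hi
  omega

theorem T_n_eq {κ : Perm (Fin n)} (hκ : Good κ) : T (cmp κ) n = n := by
  obtain ⟨-, -, h5⟩ := inv_T hκ n le_rfl
  by_contra hne
  obtain ⟨i, -, hi'⟩ := h5 n le_rfl (Ne.symm hne)
  have := (κ i).2
  omega

theorem sum_cmp {κ : Perm (Fin n)} (hκ : Good κ) : ∑ i, cmp κ i = n := by
  rw [← T_n, T_n_eq hκ]

theorem mem_of_T {κ : Perm (Fin n)} (hκ : Good κ) {c : ℕ} (hc : c ≤ n) (h1 : 1 ≤ T (cmp κ) c)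
    (h2 : T (cmp κ) c < n) : T (cmp κ) c ∈ Jof κ := by
  obtain ⟨h3, h4, -⟩ := inv_T hκ c hc
  refine mem_Jof.mpr ⟨h1, h2, fun i hi => ?_⟩
  have h5 := hκ i
  have h6 := (h4 i (by omega)).1
  omega

/-- Description of the parabolic subgroup. -/
theorem mem_parabolic_iff {F : Type*} [Field F] {κ : Perm (Fin n)} (hκ : Good κ)
    (g : Matrix.GeneralLinearGroup (Fin n) F) :
    g ∈ parabolicGL n F (cmp κ) ↔
      ∀ j ∈ Jof κ, ∀ a b : Fin n, b.val < j → j ≤ a.val → (g : Matrix (Fin n) (Fin n) F) a b = 0 := by
  have hs := sum_cmp hκ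
  constructor
  · intro hg j hj a b hb ha
    have hg' : (g : Matrix (Fin n) (Fin n) F).BlockTriangular (compLabel (cmp κ)) := hg
    apply hg'
    obtain ⟨la, hla1, hla2⟩ := exists_label (cmp κ) hs a
    obtain ⟨lb, hlb1, hlb2⟩ := exists_label (cmp κ) hs b
    rw [compLabel_eq_of (cmp κ) a la hla1 hla2, compLabel_eq_of (cmp κ) b lb hlb1 hlb2]
    have hTj := T_of_mem hκ hj
    have h1 : lb.val < j := by
      by_contra hcon
      have := T_mono (cmp κ) (show j ≤ lb.val by omega)
      omega
    have h2 : j < la.val + 1 := by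
      by_contra hcon
      have := T_mono (cmp κ) (show la.val + 1 ≤ j by omega)
      omega
    omega
  · intro hg
    have hg' : (g : Matrix (Fin n) (Fin n) F).BlockTriangular (compLabel (cmp κ)) := by
      intro a b hab
      obtain ⟨la, hla1, hla2⟩ := exists_label (cmp κ) hs a
      obtain ⟨lb, hlb1, hlb2⟩ := exists_label (cmp κ) hs b
      rw [compLabel_eq_of (cmp κ) a la hla1 hla2, compLabel_eq_of (cmp κ) b lb hlb1 hlb2] at hab
      have h1 := T_mono (cmp κ) (show lb.val + 1 ≤ la.val by omega)
      have h2 := a.2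
      refine hg _ (mem_of_T hκ (show lb.val + 1 ≤ n by have := lb.2; omega) (by omega) (by omega)) a b hlb2 (by omega)
    exact hg'

end Cfsg.Agent.Lib.GLSt.PermC
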